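-- Team project OFM (S5978), package [EX2] of the cut of [SYL4] (helper17).
import Cfsg.Agent.Lib.Helper60.OFM.Syl4Defs

/-!
# [EX2]: a nondegenerate plane carries a structure

With an orthogonal basis `e, f` of the plane `D`, `B e e = 2 c`, `B f f = 2 d`, the map
`φ v = (B e v / B e e) • (x e + c t f) + (B f v / B f f) • (d t e - x f)` with
`x ^ 2 + c d t ^ 2 = a` maps `D` to `D`, squares to `a` on `D` and is self-adjoint on `D`.
-/

set_option autoImplicit false

namespace Cfsg.Agent.Lib.Helper17.OFM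

open Matrix Cfsg.Agent.Lib.Helper23.OHyp Cfsg.Agent.Lib.Helper60.OFM

universe u

section

variable {F : Type u} [Field F]

theorem ex2_two_ne_zero [Fintype F] (hF : Odd (Fintype.card F)) : (2 : F) ≠ 0 := by
  intro h2
  have hc : ringChar F = 2 := CharP.ringChar_of_prime_eq_zero Nat.prime_two h2
  have := (FiniteField.even_card_iff_char_two (F := F)).mp hc
  rcases hF with ⟨k, hk⟩
  omega

/-- `x ^ 2 + m t ^ 2 = a` has a solution over a finite field of odd order -/
theorem ex2_exists_sq [Fintype F] (hF : Odd (Fintype.card F)) (m a : F) (hm : m ≠ 0) :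
    ∃ x t : F, x ^ 2 + m * t ^ 2 = a := by
  classical
  have hodd : Fintype.card F % 2 = 1 := Nat.odd_iff.mp hF
  have hf2 : Polynomial.degree (Polynomial.X ^ 2 - Polynomial.C a : Polynomial F) = 2 := by
    rw [Polynomial.degree_sub_C]
    · rw [Polynomial.degree_X_pow]; rfl
    · rw [Polynomial.degree_X_pow]; norm_num
  have hg2 : Polynomial.degree (Polynomial.C m * Polynomial.X ^ 2 : Polynomial F) = 2 := by
    rw [Polynomial.degree_C_mul hm, Polynomial.degree_X_pow]; rfl
  obtain ⟨x, y, hxy⟩ := FiniteField.exists_root_sum_quadratic hf2 hg2 hodd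
  refine ⟨x, y, ?_⟩
  simp only [Polynomial.eval_pow, Polynomial.eval_X, Polynomial.eval_sub, Polynomial.eval_mul,
    Polynomial.eval_C] at hxy
  linear_combination hxy

variable {ι : Type} [Fintype ι] [DecidableEq ι]

omit [DecidableEq ι] in
/-- an orthogonal basis of a nondegenerate plane -/
theorem ex2_basis (h2 : (2 : F) ≠ 0) (Q : (ι → F) → F)
    (hB : Cfsg.Geo.IsBilinearForm (QuadraticMap.polar Q)) (D : Submodule F (ι → F))
    (hD : Nd Q D) (hfin : Module.finrank F D = 2) :
    ∃ e ∈ D, ∃ f ∈ D, QuadraticMap.polar Q e e ≠ 0 ∧ QuadraticMap.polar Q f f ≠ 0 ∧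
      QuadraticMap.polar Q e f = 0 ∧
      ∀ v ∈ D, v = (QuadraticMap.polar Q e v / QuadraticMap.polar Q e e) • e +
        (QuadraticMap.polar Q f v / QuadraticMap.polar Q f f) • f := by
  have hsymm : ∀ u v, QuadraticMap.polar Q u v = QuadraticMap.polar Q v u :=
    fun u v => QuadraticMap.polar_comm Q u v
  -- a nonzero vector of `D`
  have hne : D ≠ ⊥ := by
    intro h
    rw [h, finrank_bot] at hfin
    exact absurd hfin (by norm_num)
  obtain ⟨w, hwD, hw0⟩ := (Submodule.ne_bot_iff D).mp hne
  -- a vector `e` with `B e e ≠ 0`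
  obtain ⟨e, heD, hee⟩ : ∃ e ∈ D, QuadraticMap.polar Q e e ≠ 0 := by
    by_contra hcon
    push Not at hcon
    obtain ⟨⟨x, hxD, hxw⟩, -⟩ := hD w hwD hw0
    have h1 := hcon (x + w) (D.add_mem hxD hwD)
    rw [hB.add_left, hB.add_right, hB.add_right, hcon x hxD, hcon w hwD, hsymm w x] at h1
    apply hxw
    have h3 : (2 : F) * QuadraticMap.polar Q x w = 0 := by linear_combination h1
    rcases mul_eq_zero.mp h3 with h | h
    · exact absurd h h2
    · exact h
  have he0 : e ≠ 0 := by
    rintro rfl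
    apply hee
    have := hB.smul_left 0 (0 : ι → F) 0
    rw [zero_smul, zero_mul] at this
    exact this
  -- a vector of `D` outside the line of `e`
  have hnot : ¬ D ≤ Submodule.span F {e} := by
    intro hle
    have h1 := Submodule.finrank_mono hle
    rw [hfin, finrank_span_singleton he0] at h1
    exact absurd h1 (by norm_num)
  obtain ⟨w', hw'D, hw'⟩ := SetLike.not_le_iff_exists.mp hnot
  obtain ⟨f, hf⟩ : ∃ f : ι → F,
      f = w' - (QuadraticMap.polar Q e w' / QuadraticMap.polar Q e e) • e := ⟨_, rfl⟩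
  have hfD : f ∈ D := by
    rw [hf]
    exact D.sub_mem hw'D (D.smul_mem _ heD)
  have hef : QuadraticMap.polar Q e f = 0 := by
    have h1 : f + (QuadraticMap.polar Q e w' / QuadraticMap.polar Q e e) • e = w' := by
      rw [hf]
      abel
    have h2 := congrArg (QuadraticMap.polar Q e) h1
    rw [hB.add_right, hB.smul_right, div_mul_cancel₀ _ hee] at h2
    linear_combination h2
  have hf0 : f ≠ 0 := by
    intro h0
    apply hw'
    have h1 : w' = (QuadraticMap.polar Q e w' / QuadraticMap.polar Q e e) • e := by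
      rw [h0] at hf
      exact sub_eq_zero.mp hf.symm
    rw [h1]
    exact Submodule.smul_mem _ _ (Submodule.mem_span_singleton_self e)
  -- `e, f` is a basis of `D`
  have hli : LinearIndependent F ![e, f] := by
    rw [LinearIndependent.pair_iff]
    intro s t hst
    have h1 := congrArg (QuadraticMap.polar Q e) hst
    rw [hB.add_right, hB.smul_right, hB.smul_right, hef, mul_zero, add_zero] at h1
    have h0 : QuadraticMap.polar Q e 0 = 0 := by
      have := hB.smul_right 0 e 0
      rw [zero_smul, zero_mul] at this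
      exact this
    rw [h0] at h1
    have hs : s = 0 := by
      rcases mul_eq_zero.mp h1 with h | h
      · exact h
      · exact absurd h hee
    refine ⟨hs, ?_⟩
    rw [hs, zero_smul, zero_add] at hst
    rcases smul_eq_zero.mp hst with h | h
    · exact h
    · exact absurd h hf0
  have hspan : Submodule.span F {e, f} = D := by
    apply Submodule.eq_of_le_of_finrank_eq
    · rw [Submodule.span_le]
      intro z hz
      rcases hz with rfl | rfl
      · exact heD
      · exact hfD
    · have h1 := finrank_span_eq_card hli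
      rw [Fintype.card_fin] at h1
      have h2 : Set.range ![e, f] = {e, f} := by
        ext z
        simp only [Set.mem_range, Set.mem_insert_iff, Set.mem_singleton_iff]
        constructor
        · rintro ⟨i, rfl⟩
          fin_cases i
          · exact Or.inl rfl
          · exact Or.inr rfl
        · rintro (rfl | rfl)
          · exact ⟨0, rfl⟩
          · exact ⟨1, rfl⟩
      rw [h2] at h1
      rw [h1, hfin]
  have hff : QuadraticMap.polar Q f f ≠ 0 := by
    intro h0
    obtain ⟨-, ⟨x, hxD, hfx⟩⟩ := hD f hfD hf0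
    rw [← hspan] at hxD
    obtain ⟨s, t, rfl⟩ := Submodule.mem_span_pair.mp hxD
    apply hfx
    rw [hB.add_right, hB.smul_right, hB.smul_right, hsymm f e, hef, h0, mul_zero, mul_zero,
      add_zero]
  refine ⟨e, heD, f, hfD, hee, hff, hef, ?_⟩
  intro v hv
  rw [← hspan] at hv
  obtain ⟨s, t, rfl⟩ := Submodule.mem_span_pair.mp hv
  rw [hB.add_right, hB.smul_right, hB.smul_right, hB.add_right, hB.smul_right, hB.smul_right,
    hef, hsymm f e, hef, mul_zero, mul_zero, add_zero, zero_add, mul_div_cancel_right₀ _ hee,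
    mul_div_cancel_right₀ _ hff]

/-- [EX2] -/
theorem pkgEx2 : PkgEx2.{u} := by
  intro F _ _ hodd ι _ _ Q hQ a D hD hfin
  have h2 : (2 : F) ≠ 0 := ex2_two_ne_zero hodd
  have hB := hQ.polar_bilinear
  have hsymm : ∀ u v, QuadraticMap.polar Q u v = QuadraticMap.polar Q v u :=
    fun u v => QuadraticMap.polar_comm Q u v
  obtain ⟨e, heD, f, hfD, hee, hff, hef, hexp⟩ := ex2_basis h2 Q hB D hD hfin
  obtain ⟨c, hc⟩ : ∃ c : F, c = QuadraticMap.polar Q e e / 2 := ⟨_, rfl⟩
  obtain ⟨d, hd⟩ : ∃ d : F, d = QuadraticMap.polar Q f f / 2 := ⟨_, rfl⟩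
  have hee' : QuadraticMap.polar Q e e = 2 * c := by rw [hc]; field_simp
  have hff' : QuadraticMap.polar Q f f = 2 * d := by rw [hd]; field_simp
  have hc0 : c ≠ 0 := by
    rw [hc]
    exact div_ne_zero hee h2
  have hd0 : d ≠ 0 := by
    rw [hd]
    exact div_ne_zero hff h2
  obtain ⟨x, t, hxt⟩ := ex2_exists_sq hodd (c * d) a (mul_ne_zero hc0 hd0)
  obtain ⟨p, hp⟩ : ∃ p : ι → F, p = x • e + (c * t) • f := ⟨_, rfl⟩
  obtain ⟨r, hr⟩ : ∃ r : ι → F, r = (d * t) • e - x • f := ⟨_, rfl⟩
  have hpD : p ∈ D := by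
    rw [hp]
    exact D.add_mem (D.smul_mem _ heD) (D.smul_mem _ hfD)
  have hrD : r ∈ D := by
    rw [hr]
    exact D.sub_mem (D.smul_mem _ heD) (D.smul_mem _ hfD)
  -- the linear map
  obtain ⟨L, hL⟩ : ∃ L : (ι → F) →ₗ[F] (ι → F), ∀ v, L v =
      (QuadraticMap.polar Q e v / QuadraticMap.polar Q e e) • p +
        (QuadraticMap.polar Q f v / QuadraticMap.polar Q f f) • r := by
    refine ⟨{ toFun := fun v => (QuadraticMap.polar Q e v / QuadraticMap.polar Q e e) • p +
        (QuadraticMap.polar Q f v / QuadraticMap.polar Q f f) • r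
              map_add' := ?_
              map_smul' := ?_ }, fun v => rfl⟩
    · intro u v
      rw [hB.add_right, hB.add_right, add_div, add_div, add_smul, add_smul]
      abel
    · intro s v
      simp only [RingHom.id_apply]
      rw [hB.smul_right, hB.smul_right, smul_add, smul_smul, smul_smul, mul_div_assoc,
        mul_div_assoc]
  have hLe : L e = p := by
    rw [hL, hsymm f e, hef, div_self hee, zero_div, one_smul, zero_smul, add_zero]
  have hLf : L f = r := by
    rw [hL, hef, div_self hff, zero_div, one_smul, zero_smul, zero_add]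
  have hLp : L p = a • e := by
    rw [hp, map_add, map_smul, map_smul, hLe, hLf, hp, hr, ← hxt]
    module
  have hLr : L r = a • f := by
    rw [hr, map_sub, map_smul, map_smul, hLe, hLf, hp, hr, ← hxt]
    module
  have hLD : ∀ w ∈ D, L w ∈ D := by
    intro w _
    rw [hL]
    exact D.add_mem (D.smul_mem _ hpD) (D.smul_mem _ hrD)
  have hφ : ∀ v, (LinearMap.toMatrix' L) *ᵥ v = L v := by
    intro v
    rw [← Matrix.toLin'_apply, Matrix.toLin'_toMatrix']
  refine ⟨LinearMap.toMatrix' L, ?_, ?_, ?_⟩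
  · intro w hw
    rw [hφ]
    exact hLD w hw
  · intro w hw
    rw [hφ, hφ]
    have h1 := hexp w hw
    obtain ⟨α, hα⟩ : ∃ α : F, α = QuadraticMap.polar Q e w / QuadraticMap.polar Q e e :=
      ⟨_, rfl⟩
    obtain ⟨β, hβ⟩ : ∃ β : F, β = QuadraticMap.polar Q f w / QuadraticMap.polar Q f f :=
      ⟨_, rfl⟩
    rw [← hα, ← hβ] at h1
    rw [h1, map_add, map_smul, map_smul, hLe, hLf, map_add, map_smul, map_smul, hLp, hLr]
    module
  · intro u hu v hv
    rw [hφ, hφ]
    have hu1 := hexp u hu
    have hv1 := hexp v hv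
    obtain ⟨α, hα⟩ : ∃ α : F, α = QuadraticMap.polar Q e u / QuadraticMap.polar Q e e :=
      ⟨_, rfl⟩
    obtain ⟨β, hβ⟩ : ∃ β : F, β = QuadraticMap.polar Q f u / QuadraticMap.polar Q f f :=
      ⟨_, rfl⟩
    obtain ⟨γ, hγ⟩ : ∃ γ : F, γ = QuadraticMap.polar Q e v / QuadraticMap.polar Q e e :=
      ⟨_, rfl⟩
    obtain ⟨δ, hδ⟩ : ∃ δ : F, δ = QuadraticMap.polar Q f v / QuadraticMap.polar Q f f :=
      ⟨_, rfl⟩
    rw [← hα, ← hβ] at hu1
    rw [← hγ, ← hδ] at hv1
    have key : ∀ α β γ δ : F, QuadraticMap.polar Q (α • p + β • r) (γ • e + δ • f) =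
        α * (x * γ * (2 * c) + c * t * δ * (2 * d)) +
          β * (d * t * γ * (2 * c) - x * δ * (2 * d)) := by
      intro α β γ δ
      rw [hp, hr]
      simp only [hB.add_left, hB.add_right, hB.smul_left, hB.smul_right, sub_eq_add_neg,
        ← neg_smul, hsymm f e, hef, hee', hff']
      ring
    have hLu : L u = α • p + β • r := by
      rw [hu1, map_add, map_smul, map_smul, hLe, hLf]
    have hLv : L v = γ • p + δ • r := by
      rw [hv1, map_add, map_smul, map_smul, hLe, hLf]
    rw [hLu, hLv, hsymm u, hu1, hv1, key, key]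
    ring

end

end Cfsg.Agent.Lib.Helper17.OFM
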